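import Mathlib
import Cfsg.Agent.Lib.Helper4.ExtAction

set_option autoImplicit false

namespace Cfsg.Agent.Lib.Helper12.AbIndec

open Subgroup

variable {A : Type*} [CommGroup A] [Finite A] {p : ℕ} [Fact p.Prime] (X : Subgroup (MulAut A))

def Inv (B : Subgroup A) : Prop := ∀ x ∈ X, ∀ b ∈ B, (x : MulAut A) b ∈ B

omit [Finite A] in
theorem inv_iff (B : Subgroup A) : (∀ x ∈ X, B.map x.toMonoidHom = B) ↔ Inv X B := by
  constructor
  · intro h x hx b hb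
    rw [← h x hx]
    exact ⟨b, hb, rfl⟩
  · intro h x hx
    apply le_antisymm
    · rintro _ ⟨b, hb, rfl⟩
      exact h x hx b hb
    · intro b hb
      exact ⟨x⁻¹ b, h x⁻¹ (X.inv_mem hx) b hb, by simp⟩

variable {X}

omit [Finite A] in
theorem Inv.inf {B C : Subgroup A} (hB : Inv X B) (hC : Inv X C) : Inv X (B ⊓ C) :=
  fun x hx b hb => ⟨hB x hx b hb.1, hC x hx b hb.2⟩

omit [Finite A] in
theorem Inv.sup {B C : Subgroup A} (hB : Inv X B) (hC : Inv X C) : Inv X (B ⊔ C) := by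
  intro x hx b hb
  obtain ⟨y, hy, z, hz, rfl⟩ := Subgroup.mem_sup.1 hb
  rw [map_mul]
  exact Subgroup.mul_mem_sup (hB x hx y hy) (hC x hx z hz)

omit [Finite A] in
theorem Inv.map_pow {B : Subgroup A} (hB : Inv X B) (n : ℕ) : Inv X (B.map (powMonoidHom n)) := by
  rintro x hx _ ⟨b, hb, rfl⟩
  exact ⟨x b, hB x hx b hb, by simp⟩

omit [Finite A] in
theorem Inv.comap_pow {B : Subgroup A} (hB : Inv X B) (n : ℕ) :
    Inv X (B.comap (powMonoidHom n)) := by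
  intro x hx b hb
  rw [Subgroup.mem_comap, powMonoidHom_apply] at hb ⊢
  rw [← _root_.map_pow]
  exact hB x hx _ hb

omit [Finite A] in
theorem inv_bot : Inv X (⊥ : Subgroup A) := by
  intro x _ b hb
  rw [Subgroup.mem_bot] at hb ⊢
  rw [hb, map_one]

omit [Finite A] in
theorem inv_top : Inv X (⊤ : Subgroup A) := fun _ _ _ _ => Subgroup.mem_top _

theorem rel_maschke (hA : IsPGroup p A) (hX : (Nat.card X).Coprime p) {L M T : Subgroup A}
    (hLM : L ≤ M) (hMT : M ≤ T) (hL : Inv X L) (hM : Inv X M) (hT : Inv X T)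
    (hexp : ∀ t ∈ T, t ^ p ∈ L) :
    ∃ W : Subgroup A, Inv X W ∧ L ≤ W ∧ W ≤ T ∧ W ⊓ M = L ∧ W ⊔ M = T := by
  let _ : MulDistribMulAction X T :=
    { smul := fun x t => ⟨(x : MulAut A) t, hT x x.2 t t.2⟩
      one_smul := fun t => Subtype.ext rfl
      mul_smul := fun x y t => Subtype.ext rfl
      smul_mul := fun x s t => Subtype.ext (map_mul (x : MulAut A) (s : A) (t : A))
      smul_one := fun x => Subtype.ext (map_one (x : MulAut A)) }
  have hsm : ∀ (x : X) (t : T), ((x • t : T) : A) = (x : MulAut A) t := fun _ _ => rfl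
  have hcop : (Nat.card X).Coprime (Nat.card T) := by
    obtain ⟨k, hk⟩ := IsPGroup.iff_card.1 (hA.to_subgroup T)
    rw [hk]; exact Nat.Coprime.pow_right k hX
  obtain ⟨W, h1, h2, h3, h4⟩ := Cfsg.Agent.Lib.Helper4.exists_invariant_complement_ext
    (A := X) (G := T) hcop (p := p) (L.subgroupOf T) (M.subgroupOf T)
    (fun x hx => hLM hx) (fun a x hx => hL a a.2 _ hx) (fun a x hx => hM a a.2 _ hx)
    (fun x y => by
      have : x * y * x⁻¹ * y⁻¹ = 1 := by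
        rw [mul_comm x y, mul_inv_cancel_right, mul_inv_cancel]
      rw [this]; exact one_mem _)
    (fun x => hexp x x.2)
  refine ⟨W.map T.subtype, ?_, ?_, ?_, ?_, ?_⟩
  · rintro x hx _ ⟨w, hw, rfl⟩
    exact ⟨(⟨x, hx⟩ : X) • w, h2 ⟨x, hx⟩ w hw, rfl⟩
  · intro l hl
    exact ⟨⟨l, hMT (hLM hl)⟩, h1 hl, rfl⟩
  · rintro _ ⟨w, -, rfl⟩
    exact w.2
  · ext a
    constructor
    · rintro ⟨⟨w, hw, rfl⟩, ha⟩
      have : w ∈ W ⊓ M.subgroupOf T := ⟨hw, ha⟩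
      rw [h3] at this
      exact this
    · intro ha
      exact ⟨⟨⟨a, hMT (hLM ha)⟩, h1 ha, rfl⟩, hLM ha⟩
  · apply le_antisymm
    · apply sup_le _ hMT
      rintro _ ⟨w, -, rfl⟩
      exact w.2
    · intro t ht
      have : (⟨t, ht⟩ : T) ∈ M.subgroupOf T ⊔ W := by rw [h4]; trivial
      obtain ⟨m, hm, w, hw, hmw⟩ := Subgroup.mem_sup.1 this
      have h5 : t = (w : A) * (m : A) := by
        have := congrArg Subtype.val hmw
        rw [mul_comm]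
        exact this.symm
      rw [h5]
      exact Subgroup.mul_mem_sup ⟨w, hw, rfl⟩ hm

theorem P1_P3 (hA : IsPGroup p A) (hX : (Nat.card X).Coprime p)
    (hP1 : ∀ B C : Subgroup A, Inv X B → Inv X C → B ⊓ C = ⊥ → B ⊔ C = ⊤ → B = ⊥ ∨ C = ⊥)
    (B : Subgroup A) (hB : Inv X B) (hBp : ∀ b ∈ B, b ^ p = 1) :
    B = ⊥ ∨ ∀ a : A, a ∈ B ↔ a ^ p = 1 := by
  classical
  have hex : ∃ n : ℕ, ∀ a : A, a ^ p ^ n = 1 := by
    obtain ⟨n, hn⟩ := IsPGroup.iff_card.1 hA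
    exact ⟨n, fun a => by rw [← hn]; exact pow_card_eq_one'⟩
  obtain ⟨n, hn, hnmin⟩ : ∃ n, (∀ a : A, a ^ p ^ n = 1) ∧ ∀ m < n, ¬ ∀ a : A, a ^ p ^ m = 1 :=
    ⟨Nat.find hex, Nat.find_spec hex, fun m hm => Nat.find_min hex hm⟩
  rcases Nat.eq_zero_or_pos n with rfl | hpos
  · left
    rw [eq_bot_iff]
    intro b _
    have := hn b
    simpa using this
  obtain ⟨k, rfl⟩ : ∃ k, n = k + 1 := ⟨n - 1, by omega⟩
  have hk := hnmin k (Nat.lt_succ_self k)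
  push Not at hk
  obtain ⟨a₀, ha₀⟩ := hk
  obtain ⟨A₁, hA₁⟩ : ∃ A₁ : Subgroup A, A₁ = (⊤ : Subgroup A).map (powMonoidHom (p ^ k)) :=
    ⟨_, rfl⟩
  have hA₁mem : ∀ u ∈ A₁, ∃ a : A, u = a ^ p ^ k := by
    intro u hu
    rw [hA₁] at hu
    obtain ⟨a, -, rfl⟩ := hu
    exact ⟨a, rfl⟩
  have hA₁inv : Inv X A₁ := by rw [hA₁]; exact inv_top.map_pow _
  have hA₁ne : A₁ ≠ ⊥ := by
    intro h
    have : a₀ ^ p ^ k ∈ A₁ := by rw [hA₁]; exact ⟨a₀, trivial, rfl⟩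
    rw [h, Subgroup.mem_bot] at this
    exact ha₀ this
  have hA₁p : ∀ u ∈ A₁, u ^ p = 1 := by
    intro u hu
    obtain ⟨a, rfl⟩ := hA₁mem u hu
    rw [← pow_mul, ← pow_succ]
    exact hn a
  obtain ⟨U, ⟨hUinv, hU1, hUA₁⟩, hUmin⟩ :=
    (Set.toFinite {U : Subgroup A | Inv X U ∧ U ≠ ⊥ ∧ U ≤ A₁}).exists_minimal
      ⟨A₁, hA₁inv, hA₁ne, le_rfl⟩
  obtain ⟨C, ⟨hCinv, hCU⟩, hCmax⟩ :=
    (Set.toFinite {C : Subgroup A | Inv X C ∧ C ⊓ U = ⊥}).exists_maximal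
      ⟨⊥, inv_bot, bot_inf_eq _⟩
  -- the socle modulo C
  have hOm : C.comap (powMonoidHom p) = U ⊔ C := by
    have hUle : U ⊔ C ≤ C.comap (powMonoidHom p) := by
      apply sup_le
      · intro u hu
        rw [Subgroup.mem_comap, powMonoidHom_apply, hA₁p u (hUA₁ hu)]
        exact one_mem _
      · intro c hc
        rw [Subgroup.mem_comap, powMonoidHom_apply]
        exact C.pow_mem hc p
    obtain ⟨W, hWinv, hCW, hWT, hWM, hWsup⟩ := rel_maschke hA hX (L := C) (M := U ⊔ C)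
      (T := C.comap (powMonoidHom p)) le_sup_right hUle hCinv (hUinv.sup hCinv)
      (hCinv.comap_pow p) (fun t ht => ht)
    have hWU : W ⊓ U = ⊥ := by
      rw [eq_bot_iff]
      intro y hy
      have h1 : y ∈ W ⊓ (U ⊔ C) := ⟨hy.1, (le_sup_left : U ≤ U ⊔ C) hy.2⟩
      rw [hWM] at h1
      rw [← hCU]
      exact ⟨h1, hy.2⟩
    have hWC : W ≤ C := hCmax ⟨hWinv, hWU⟩ hCW
    rw [← hWsup]
    exact sup_eq_right.2 (hWC.trans le_sup_right)
  obtain ⟨H, ⟨hHinv, hHC⟩, hHmin⟩ :=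
    (Set.toFinite {H : Subgroup A | Inv X H ∧ H ⊔ C = ⊤}).exists_minimal
      ⟨⊤, inv_top, top_sup_eq _⟩
  have hDle : H ⊓ C ≤ H.map (powMonoidHom p) := by
    have hHp : H.map (powMonoidHom p) ≤ H := by
      rintro _ ⟨h, hh, rfl⟩
      exact H.pow_mem hh p
    obtain ⟨H₀, hH₀inv, hLH₀, hH₀H, hH₀M, hH₀sup⟩ := rel_maschke hA hX
      (L := H.map (powMonoidHom p)) (M := (H ⊓ C) ⊔ H.map (powMonoidHom p)) (T := H)
      le_sup_right (sup_le inf_le_left hHp) (hHinv.map_pow p)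
      ((hHinv.inf hCinv).sup (hHinv.map_pow p)) hHinv (fun t ht => ⟨t, ht, rfl⟩)
    have h1 : H₀ ⊔ C = ⊤ := by
      rw [eq_top_iff, ← hHC]
      apply sup_le _ le_sup_right
      rw [← hH₀sup]
      apply sup_le le_sup_left
      apply sup_le (inf_le_right.trans le_sup_right)
      exact hLH₀.trans le_sup_left
    have h2 : H ≤ H₀ := hHmin ⟨hH₀inv, h1⟩ hH₀H
    have h3 : H₀ = H := le_antisymm hH₀H h2
    rw [h3] at hH₀M
    intro d hd
    rw [← hH₀M]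
    exact ⟨hd.1, (le_sup_left : H ⊓ C ≤ _) hd⟩
  have hDpow : ∀ d ∈ H ⊓ C, ∃ c ∈ H ⊓ C, d = c ^ p := by
    intro d hd
    obtain ⟨h, hh, hhd⟩ := hDle hd
    rw [powMonoidHom_apply] at hhd
    have h1 : h ∈ C.comap (powMonoidHom p) := by
      rw [Subgroup.mem_comap, powMonoidHom_apply, hhd]; exact hd.2
    rw [hOm] at h1
    obtain ⟨u, hu, c, hc, huc⟩ := Subgroup.mem_sup.1 h1
    obtain ⟨a, rfl⟩ := hA₁mem u (hUA₁ hu)
    have ha : a ∈ H ⊔ C := by rw [hHC]; trivial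
    obtain ⟨h₁, hh₁, c₁, hc₁, rfl⟩ := Subgroup.mem_sup.1 ha
    have h2 : h = h₁ ^ p ^ k * (c₁ ^ p ^ k * c) := by
      rw [← huc, mul_pow, mul_assoc]
    have h3 : c₁ ^ p ^ k * c ∈ H ⊓ C := by
      refine ⟨?_, C.mul_mem (C.pow_mem hc₁ _) hc⟩
      have : c₁ ^ p ^ k * c = (h₁ ^ p ^ k)⁻¹ * h := by rw [h2]; group
      rw [this]
      exact H.mul_mem (H.inv_mem (H.pow_mem hh₁ _)) hh
    refine ⟨_, h3, ?_⟩
    rw [← hhd, h2, mul_pow, ← pow_mul, ← pow_succ, hn h₁, one_mul]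
  have hD : H ⊓ C = ⊥ := by
    by_contra hne
    have hsurj : Function.Surjective (fun c : (H ⊓ C : Subgroup A) => c ^ p) := by
      rintro ⟨d, hd⟩
      obtain ⟨c, hc, rfl⟩ := hDpow d hd
      exact ⟨⟨c, hc⟩, rfl⟩
    have hinj := Finite.injective_iff_surjective.2 hsurj
    have hcard : p ∣ Nat.card (H ⊓ C : Subgroup A) := by
      obtain ⟨j, hj⟩ := IsPGroup.iff_card.1 (hA.to_subgroup (H ⊓ C))
      rw [hj]
      apply dvd_pow_self
      rintro rfl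
      rw [pow_zero] at hj
      exact hne (Subgroup.card_eq_one.1 hj)
    obtain ⟨y, hy⟩ := exists_prime_orderOf_dvd_card' (G := (H ⊓ C : Subgroup A)) p hcard
    have h1 : y ^ p = (1 : (H ⊓ C : Subgroup A)) ^ p := by
      rw [one_pow, ← hy, pow_orderOf_eq_one]
    have h2 : y = 1 := hinj h1
    rw [h2, orderOf_one] at hy
    exact (Fact.out : p.Prime).one_lt.ne hy
  have hC1 : C = ⊥ := by
    rcases hP1 H C hHinv hCinv hD hHC with h | h
    · exfalso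
      rw [h, bot_sup_eq] at hHC
      rw [hHC, top_inf_eq] at hCU
      exact hU1 hCU
    · exact h
  rw [hC1, sup_bot_eq] at hOm
  have hUeq : ∀ a : A, a ∈ U ↔ a ^ p = 1 := by
    intro a
    rw [← hOm, Subgroup.mem_comap, powMonoidHom_apply, Subgroup.mem_bot]
  have hBU : B ≤ U := fun b hb => (hUeq b).2 (hBp b hb)
  by_cases hB1 : B = ⊥
  · exact Or.inl hB1
  · right
    have : U ≤ B := hUmin ⟨hB, hB1, hBU.trans hUA₁⟩ hBU
    have hBeq : B = U := le_antisymm hBU this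
    rw [hBeq]
    exact hUeq

theorem P3_P2 (hA : IsPGroup p A)
    (hP3 : ∀ B : Subgroup A, Inv X B → (∀ b ∈ B, b ^ p = 1) →
      B = ⊥ ∨ ∀ a : A, a ∈ B ↔ a ^ p = 1)
    (B : Subgroup A) (hB : Inv X B) : ∃ i : ℕ, ∀ a : A, a ∈ B ↔ a ^ p ^ i = 1 := by
  classical
  have hp : p.Prime := Fact.out
  have claim : ∀ i : ℕ, (∃ b ∈ B, orderOf b = p ^ i) → ∀ a : A, a ^ p ^ i = 1 → a ∈ B := by
    intro i
    induction i with
    | zero =>
      intro _ a ha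
      rw [pow_zero, pow_one] at ha
      rw [ha]; exact one_mem _
    | succ i ih =>
      rintro ⟨b, hb, hbo⟩ a ha
      have ih' := ih ⟨b ^ p, B.pow_mem hb p, by
        rw [orderOf_pow_of_dvd hp.ne_zero (by rw [hbo, pow_succ]; exact Dvd.intro_left _ rfl), hbo,
          pow_succ, Nat.mul_div_cancel _ hp.pos]⟩
      obtain ⟨B₁, hB₁⟩ : ∃ B₁ : Subgroup A, B₁ =
          (B ⊓ (⊥ : Subgroup A).comap (powMonoidHom (p ^ (i + 1)))).map (powMonoidHom (p ^ i)) :=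
        ⟨_, rfl⟩
      have hB₁inv : Inv X B₁ := by
        rw [hB₁]; exact (hB.inf (inv_bot.comap_pow _)).map_pow _
      have hB₁p : ∀ y ∈ B₁, y ^ p = 1 := by
        intro y hy
        rw [hB₁] at hy
        obtain ⟨c, ⟨-, hc⟩, rfl⟩ := hy
        have hc' : c ^ p ^ (i + 1) = 1 := by
          have : c ∈ (⊥ : Subgroup A).comap (powMonoidHom (p ^ (i + 1))) := hc
          rwa [Subgroup.mem_comap, powMonoidHom_apply, Subgroup.mem_bot] at this
        rw [powMonoidHom_apply, ← pow_mul, ← pow_succ]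
        exact hc'
      have hB₁ne : B₁ ≠ ⊥ := by
        intro h
        have h1 : b ^ p ^ i ∈ B₁ := by
          rw [hB₁]
          refine ⟨b, ⟨hb, ?_⟩, rfl⟩
          change b ∈ (⊥ : Subgroup A).comap (powMonoidHom (p ^ (i + 1)))
          rw [Subgroup.mem_comap, powMonoidHom_apply, Subgroup.mem_bot, ← hbo, pow_orderOf_eq_one]
        rw [h, Subgroup.mem_bot] at h1
        exact pow_ne_one_of_lt_orderOf (pow_ne_zero _ hp.ne_zero)
          (by rw [hbo]; exact Nat.pow_lt_pow_right hp.one_lt (Nat.lt_succ_self i)) h1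
      rcases hP3 B₁ hB₁inv hB₁p with h | h
      · exact absurd h hB₁ne
      · have h1 : a ^ p ^ i ∈ B₁ := by
          rw [h, ← pow_mul, ← pow_succ]; exact ha
        rw [hB₁] at h1
        obtain ⟨c, ⟨hc, -⟩, hca⟩ := h1
        rw [powMonoidHom_apply] at hca
        have h2 : (a * c⁻¹) ^ p ^ i = 1 := by
          rw [mul_pow, inv_pow, hca, mul_inv_cancel]
        have h3 := B.mul_mem (ih' _ h2) hc
        rwa [inv_mul_cancel_right] at h3
  have hex : ∃ n : ℕ, ∀ b ∈ B, b ^ p ^ n = 1 := by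
    obtain ⟨n, hn⟩ := IsPGroup.iff_card.1 hA
    exact ⟨n, fun a _ => by rw [← hn]; exact pow_card_eq_one'⟩
  obtain ⟨n, hn, hnmin⟩ : ∃ n, (∀ b ∈ B, b ^ p ^ n = 1) ∧ ∀ m < n, ¬ ∀ b ∈ B, b ^ p ^ m = 1 :=
    ⟨Nat.find hex, Nat.find_spec hex, fun m hm => Nat.find_min hex hm⟩
  refine ⟨n, fun a => ⟨hn a, claim n ?_ a⟩⟩
  rcases Nat.eq_zero_or_pos n with rfl | hpos
  · exact ⟨1, one_mem _, by simp⟩
  · obtain ⟨k, rfl⟩ : ∃ k, n = k + 1 := ⟨n - 1, by omega⟩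
    have hk := hnmin k (Nat.lt_succ_self k)
    push Not at hk
    obtain ⟨b, hb, hbk⟩ := hk
    exact ⟨b, hb, orderOf_eq_prime_pow hbk (hn b hb)⟩

omit [Finite A] [Fact p.Prime] in
theorem P2_P1 (hP2 : ∀ B : Subgroup A, Inv X B → ∃ i : ℕ, ∀ a : A, a ∈ B ↔ a ^ p ^ i = 1)
    (B C : Subgroup A) (hB : Inv X B) (hC : Inv X C) (hBC : B ⊓ C = ⊥) : B = ⊥ ∨ C = ⊥ := by
  obtain ⟨i, hi⟩ := hP2 B hB
  obtain ⟨j, hj⟩ := hP2 C hC
  have key : ∀ (i j : ℕ) (a : A), i ≤ j → a ^ p ^ i = 1 → a ^ p ^ j = 1 := by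
    intro i j a hij ha
    obtain ⟨d, rfl⟩ := Nat.exists_eq_add_of_le hij
    rw [pow_add, pow_mul, ha, one_pow]
  rcases le_total i j with h | h
  · left
    rw [← hBC]
    exact (inf_eq_left.2 (fun a ha => (hj a).2 (key i j a h ((hi a).1 ha)))).symm
  · right
    rw [← hBC]
    exact (inf_eq_right.2 (fun a ha => (hi a).2 (key j i a h ((hj a).1 ha)))).symm

omit [Finite A] [Fact p.Prime] in
theorem P2_P3 (hP2 : ∀ B : Subgroup A, Inv X B → ∃ i : ℕ, ∀ a : A, a ∈ B ↔ a ^ p ^ i = 1)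
    (B : Subgroup A) (hB : Inv X B) (hBp : ∀ b ∈ B, b ^ p = 1) :
    B = ⊥ ∨ ∀ a : A, a ∈ B ↔ a ^ p = 1 := by
  obtain ⟨i, hi⟩ := hP2 B hB
  rcases Nat.eq_zero_or_pos i with rfl | hpos
  · left
    rw [eq_bot_iff]
    intro a ha
    have := (hi a).1 ha
    simpa using this
  · right
    obtain ⟨k, rfl⟩ : ∃ k, i = k + 1 := ⟨i - 1, by omega⟩
    intro a
    refine ⟨hBp a, fun ha => (hi a).2 ?_⟩
    rw [pow_succ', pow_mul, ha, one_pow]

end Cfsg.Agent.Lib.Helper12.AbIndec
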