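import Mathlib

/-!
The Krull–Remak–Schmidt theorem for finite groups (external products over `Fin`).
-/

set_option autoImplicit false
set_option linter.unusedSectionVars false

namespace Cfsg.Agent.Lib.Helper12

section fitting
variable {A : Type*} [Group A] [Finite A]

/-- directly indecomposable. -/
def Indec (A : Type*) [Group A] : Prop :=
  ∀ H K : Subgroup A, H.Normal → K.Normal → H ⊓ K = ⊥ → H ⊔ K = ⊤ → H = ⊥ ∨ K = ⊥

/-- normal endomorphism. -/
def NormalEnd (φ : A →* A) : Prop := ∀ a x, φ (a * x * a⁻¹) = a * φ x * a⁻¹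

theorem NormalEnd.iterate {φ : A →* A} (hφ : NormalEnd φ) (n : ℕ) (a x : A) :
    φ^[n] (a * x * a⁻¹) = a * φ^[n] x * a⁻¹ := by
  induction n generalizing x with
  | zero => rfl
  | succ n ih => rw [Function.iterate_succ_apply, Function.iterate_succ_apply, hφ, ih]

theorem exists_idem_pow (φ : A → A) : ∃ n, 0 < n ∧ φ^[2 * n] = φ^[n] := by
  obtain ⟨a, b, hab, h⟩ := Finite.exists_ne_map_eq_of_infinite (fun n : ℕ => φ^[n])
  wlog hlt : a < b generalizing a b
  · exact this b a hab.symm h.symm (by omega)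
  obtain ⟨d, rfl⟩ : ∃ d, b = a + d := ⟨b - a, by omega⟩
  have hd : 0 < d := by omega
  have h' : φ^[a] = φ^[a + d] := h
  have h1 : ∀ k, φ^[a + k + d] = φ^[a + k] := by
    intro k
    rw [show a + k + d = (a + d) + k by ring, Function.iterate_add, ← h', ← Function.iterate_add]
  have h2 : ∀ t k, φ^[a + k + t * d] = φ^[a + k] := by
    intro t
    induction t with
    | zero => intro k; simp
    | succ t ih =>
      intro k
      rw [show a + k + (t + 1) * d = a + (k + t * d) + d by ring, h1, ← add_assoc, ih]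
  obtain ⟨N, hN⟩ : ∃ N, N = (a + 1) * d := ⟨_, rfl⟩
  have hNa : a + 1 ≤ N := hN ▸ Nat.le_mul_of_pos_right _ hd
  obtain ⟨k, hk⟩ : ∃ k, N = a + k := ⟨N - a, by omega⟩
  refine ⟨N, by omega, ?_⟩
  have h3 := h2 (a + 1) k
  rw [← hN, ← hk] at h3
  rw [two_mul]
  exact h3

/-- iterate of an endomorphism as a homomorphism. -/
def iterHom (φ : A →* A) : ℕ → (A →* A)
  | 0 => MonoidHom.id A
  | n + 1 => (iterHom φ n).comp φ

theorem iterHom_apply (φ : A →* A) (n : ℕ) (x : A) : iterHom φ n x = φ^[n] x := by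
  induction n generalizing x with
  | zero => rfl
  | succ n ih =>
    rw [Function.iterate_succ_apply, ← ih]
    rfl

theorem exists_idem_iter (φ : A →* A) : ∃ n, 0 < n ∧ ∃ ε : A →* A, (∀ x, ε x = φ^[n] x) ∧
    ∀ x, ε (ε x) = ε x := by
  obtain ⟨n, hn, h⟩ := exists_idem_pow (φ : A → A)
  refine ⟨n, hn, iterHom φ n, iterHom_apply φ n, fun x => ?_⟩
  rw [iterHom_apply, iterHom_apply, ← Function.iterate_add_apply, ← two_mul, h]

theorem fitting (hind : Indec A) (φ : A →* A) (hφ : NormalEnd φ) :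
    Function.Injective φ ∨ ∃ n, ∀ x, (φ^[n]) x = 1 := by
  obtain ⟨n, hn, ε, hε, hεε⟩ := exists_idem_iter φ
  have hεn : NormalEnd ε := by
    intro a x
    rw [hε, hε, hφ.iterate]
  have hr : ε.range.Normal := ⟨by
    rintro _ ⟨y, rfl⟩ a
    exact ⟨a * y * a⁻¹, hεn a y⟩⟩
  have hbot : ε.ker ⊓ ε.range = ⊥ := by
    rw [eq_bot_iff]
    rintro x ⟨hx1, ⟨y, rfl⟩⟩
    have hx2 : ε (ε y) = 1 := hx1
    rw [hεε] at hx2
    exact Subgroup.mem_bot.2 hx2
  have htop : ε.ker ⊔ ε.range = ⊤ := by
    rw [eq_top_iff]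
    intro x _
    have h1 : x = (x * (ε x)⁻¹) * ε x := by group
    rw [h1]
    exact Subgroup.mul_mem_sup (by rw [MonoidHom.mem_ker, map_mul, map_inv, hεε, mul_inv_cancel]) ⟨x, rfl⟩
  rcases hind ε.ker ε.range inferInstance hr hbot htop with h | h
  · left
    have hinj : Function.Injective ε := (MonoidHom.ker_eq_bot_iff ε).1 h
    intro x y hxy
    apply hinj
    rw [hε, hε]
    obtain ⟨n', rfl⟩ := Nat.exists_eq_succ_of_ne_zero hn.ne'
    rw [Function.iterate_succ_apply, Function.iterate_succ_apply, hxy]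
  · right
    refine ⟨n, fun x => ?_⟩
    rw [← hε]
    have : ε x ∈ ε.range := ⟨x, rfl⟩
    rw [h] at this
    exact Subgroup.mem_bot.1 this

theorem sum_lemma (hind : Indec A) (τ α β : A →* A) (hτ : NormalEnd τ) (hα : NormalEnd α)
    (hτb : Function.Injective τ) (hsum : ∀ x, τ x = α x * β x) :
    Function.Injective α ∨ Function.Injective β := by
  by_contra hcon
  rw [not_or] at hcon
  have hbij : Function.Bijective τ := Finite.injective_iff_bijective.1 hτb
  obtain ⟨T, hTd⟩ : ∃ T : A ≃* A, ∀ x, T x = τ x := ⟨MulEquiv.ofBijective τ hbij, fun _ => rfl⟩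
  have hT : ∀ x, τ (T.symm x) = x := fun x => by rw [← hTd, T.apply_symm_apply]
  obtain ⟨φ, hφd⟩ : ∃ φ : A →* A, ∀ x, φ x = T.symm (α x) :=
    ⟨T.symm.toMonoidHom.comp α, fun _ => rfl⟩
  have hφn : NormalEnd φ := by
    intro a x
    apply hτb
    rw [hφd, hφd, hT, hτ, hT, hα]
  rcases fitting hind φ hφn with h | ⟨n, hn⟩
  · apply hcon.1
    intro x y hxy
    apply h
    rw [hφd, hφd, hxy]
  · apply hcon.2
    rw [injective_iff_map_eq_one]
    intro x hx
    have h1 : φ x = x := by
      rw [hφd]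
      have := hsum x
      rw [hx, mul_one] at this
      rw [← this, ← hTd, T.symm_apply_apply]
    have h2 : φ^[n] x = x := Function.iterate_fixed h1 n
    rw [← h2, hn]

end fitting

section prod
variable {n : ℕ} {B : Fin n → Type*} [∀ j, Group (B j)]

/-- projection onto the coordinates in `J`. -/
def rho (J : Finset (Fin n)) : ((j : Fin n) → B j) →* ((j : Fin n) → B j) where
  toFun y := fun k => if k ∈ J then y k else 1
  map_one' := by funext k; simp
  map_mul' x y := by funext k; by_cases h : k ∈ J <;> simp [h]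

theorem rho_apply (J : Finset (Fin n)) (y : (j : Fin n) → B j) (k : Fin n) :
    rho J y k = if k ∈ J then y k else 1 := rfl

theorem rho_conj (J : Finset (Fin n)) (g y : (j : Fin n) → B j) :
    rho J (g * y * g⁻¹) = g * rho J y * g⁻¹ := by
  funext k
  by_cases h : k ∈ J <;> simp [rho_apply, h]

theorem rho_univ (y : (j : Fin n) → B j) : rho Finset.univ y = y := by
  funext k; simp [rho_apply]

theorem rho_empty (y : (j : Fin n) → B j) : rho ∅ y = 1 := by
  funext k; simp [rho_apply]

theorem rho_insert {j : Fin n} {J : Finset (Fin n)} (hj : j ∉ J) (y : (j : Fin n) → B j) :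
    rho (insert j J) y = rho {j} y * rho J y := by
  funext k
  by_cases h1 : k = j
  · subst h1; simp [rho_apply, hj]
  · by_cases h2 : k ∈ J <;> simp [rho_apply, h1, h2]

theorem rho_singleton (j : Fin n) (y : (j : Fin n) → B j) : rho {j} y = Pi.mulSingle j (y j) := by
  funext k
  by_cases h1 : k = j
  · subst h1; simp [rho_apply]
  · simp [rho_apply, h1]

theorem conj_mulSingle (j : Fin n) (h : (j : Fin n) → B j) (x : B j) :
    h * Pi.mulSingle j x * h⁻¹ = Pi.mulSingle j (h j * x * (h j)⁻¹) := by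
  funext k
  by_cases h1 : k = j
  · subst h1; simp
  · simp [h1]

end prod

section main
universe u v
variable {m n : ℕ} {A : Fin (m + 1) → Type u} {B : Fin n → Type v} [∀ i, Group (A i)]
  [∀ j, Group (B j)] [∀ i, Finite (A i)] [∀ j, Finite (B j)]

/-- `π₀ ∘ e⁻¹ ∘ ρ_J ∘ e ∘ ι₀`. -/
def sigma (e : ((i : Fin (m + 1)) → A i) ≃* ((j : Fin n) → B j)) (J : Finset (Fin n)) : A 0 →* A 0 :=
  (Pi.evalMonoidHom A 0).comp (e.symm.toMonoidHom.comp ((rho J).comp
    (e.toMonoidHom.comp (MonoidHom.mulSingle A 0))))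

theorem sigma_apply (e : ((i : Fin (m + 1)) → A i) ≃* ((j : Fin n) → B j)) (J : Finset (Fin n)) (x : A 0) :
    sigma e J x = (e.symm (rho J (e (Pi.mulSingle 0 x)))) 0 := rfl

theorem sigma_normal (e : ((i : Fin (m + 1)) → A i) ≃* ((j : Fin n) → B j)) (J : Finset (Fin n)) :
    NormalEnd (sigma e J) := by
  intro a x
  rw [sigma_apply, sigma_apply]
  have h1 : (Pi.mulSingle 0 (a * x * a⁻¹) : (i : Fin (m + 1)) → A i) =
      Pi.mulSingle 0 a * Pi.mulSingle 0 x * (Pi.mulSingle 0 a)⁻¹ := by
    rw [conj_mulSingle]; simp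
  have h2 : e (Pi.mulSingle 0 a * Pi.mulSingle 0 x * (Pi.mulSingle 0 a)⁻¹) =
      e (Pi.mulSingle 0 a) * e (Pi.mulSingle 0 x) * (e (Pi.mulSingle 0 a))⁻¹ := by
    rw [map_mul, map_mul, map_inv]
  rw [h1, h2, rho_conj, map_mul, map_mul, map_inv, e.symm_apply_apply]
  simp

theorem exists_factor (hA0 : Nontrivial (A 0)) (hind : Indec (A 0))
    (e : ((i : Fin (m + 1)) → A i) ≃* ((j : Fin n) → B j)) :
    ∃ j, Function.Injective (sigma e {j}) := by
  have key : ∀ J : Finset (Fin n), Function.Injective (sigma e J) →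
      ∃ j ∈ J, Function.Injective (sigma e {j}) := by
    intro J
    induction J using Finset.induction_on with
    | empty =>
      intro h
      exfalso
      obtain ⟨x, y, hxy⟩ := hA0
      apply hxy
      apply h
      rw [sigma_apply, sigma_apply, rho_empty, rho_empty]
    | insert j J hj ih =>
      intro h
      rcases sum_lemma hind (sigma e (insert j J)) (sigma e {j}) (sigma e J) (sigma_normal e _)
        (sigma_normal e _) h (by
          intro x
          rw [sigma_apply, sigma_apply, sigma_apply, rho_insert hj, map_mul]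
          rfl) with h1 | h1
      · exact ⟨j, Finset.mem_insert_self _ _, h1⟩
      · obtain ⟨k, hk, hk2⟩ := ih h1
        exact ⟨k, Finset.mem_insert_of_mem hk, hk2⟩
  obtain ⟨j, _, hj⟩ := key Finset.univ (by
    intro x y hxy
    rw [sigma_apply, sigma_apply, rho_univ, rho_univ, e.symm_apply_apply, e.symm_apply_apply] at hxy
    simpa using hxy)
  exact ⟨j, hj⟩

/-- `π₀ ∘ e⁻¹ ∘ ι_j`. -/
def betaHom (e : ((i : Fin (m + 1)) → A i) ≃* ((j : Fin n) → B j)) (j : Fin n) : B j →* A 0 :=
  (Pi.evalMonoidHom A 0).comp (e.symm.toMonoidHom.comp (MonoidHom.mulSingle B j))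

theorem betaHom_apply (e : ((i : Fin (m + 1)) → A i) ≃* ((j : Fin n) → B j)) (j : Fin n) (b : B j) :
    betaHom e j b = (e.symm (Pi.mulSingle j b)) 0 := rfl

theorem betaHom_bijective (hA0 : Nontrivial (A 0))
    (e : ((i : Fin (m + 1)) → A i) ≃* ((j : Fin n) → B j)) (j : Fin n) (hB : Indec (B j))
    (h : Function.Injective (sigma e {j})) : Function.Bijective (betaHom e j) := by
  obtain ⟨α, hα⟩ : ∃ α : A 0 →* B j, ∀ x, α x = e (Pi.mulSingle 0 x) j :=
    ⟨(Pi.evalMonoidHom B j).comp (e.toMonoidHom.comp (MonoidHom.mulSingle A 0)), fun _ => rfl⟩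
  have hβα : ∀ x, betaHom e j (α x) = sigma e {j} x := by
    intro x
    rw [betaHom_apply, sigma_apply, rho_singleton, hα]
  have hsurj : Function.Surjective (sigma e {j}) := Finite.injective_iff_surjective.1 h
  have hαinj : Function.Injective α := by
    intro x y hxy
    apply h
    rw [← hβα, ← hβα, hxy]
  have hrn : α.range.Normal := ⟨by
    rintro _ ⟨x, rfl⟩ b
    refine ⟨(e.symm (Pi.mulSingle j b)) 0 * x * ((e.symm (Pi.mulSingle j b)) 0)⁻¹, ?_⟩
    rw [hα, ← conj_mulSingle, map_mul, map_mul, map_inv, e.apply_symm_apply, hα]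
    simp⟩
  have hker : (betaHom e j).ker = ⊥ := by
    have hbot : α.range ⊓ (betaHom e j).ker = ⊥ := by
      rw [eq_bot_iff]
      rintro _ ⟨⟨x, rfl⟩, hx'⟩
      have hx : betaHom e j (α x) = 1 := hx'
      rw [hβα] at hx
      have : x = 1 := h (by rw [hx, map_one])
      rw [this, map_one]
      exact Subgroup.mem_bot.2 rfl
    have htop : α.range ⊔ (betaHom e j).ker = ⊤ := by
      rw [eq_top_iff]
      intro b _
      obtain ⟨a, ha⟩ := hsurj (betaHom e j b)
      have h1 : b = α a * ((α a)⁻¹ * b) := by group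
      rw [h1]
      refine Subgroup.mul_mem_sup ⟨a, rfl⟩ ?_
      rw [MonoidHom.mem_ker, map_mul, map_inv, hβα, ha, inv_mul_cancel]
    rcases hB α.range (betaHom e j).ker hrn inferInstance hbot htop with h1 | h1
    · exfalso
      obtain ⟨x, y, hxy⟩ := hA0
      apply hxy
      apply hαinj
      have hx : α x ∈ α.range := ⟨x, rfl⟩
      have hy : α y ∈ α.range := ⟨y, rfl⟩
      rw [h1, Subgroup.mem_bot] at hx hy
      rw [hx, hy]
    · exact h1
  refine ⟨(MonoidHom.ker_eq_bot_iff _).1 hker, ?_⟩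
  intro a
  obtain ⟨x, hx⟩ := hsurj a
  exact ⟨α x, by rw [hβα, hx]⟩

end main

section reduce
universe u v
variable {m n : ℕ} {A : Fin (m + 1) → Type u} {B : Fin (n + 1) → Type v} [∀ i, Group (A i)]
  [∀ j, Group (B j)] [∀ i, Finite (A i)] [∀ j, Finite (B j)]

/-- prepend `1`. -/
def consHom : ((i : Fin m) → A i.succ) →* ((i : Fin (m + 1)) → A i) where
  toFun x := Fin.cons 1 x
  map_one' := by
    funext i
    refine Fin.cases ?_ (fun k => ?_) i <;> simp
  map_mul' x y := by
    funext i
    refine Fin.cases ?_ (fun k => ?_) i <;> simp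

theorem consHom_zero (x : (i : Fin m) → A i.succ) : consHom x 0 = 1 := rfl

theorem consHom_succ (x : (i : Fin m) → A i.succ) (i : Fin m) : consHom x i.succ = x i := rfl

theorem reduce (e : ((i : Fin (m + 1)) → A i) ≃* ((j : Fin (n + 1)) → B j)) (j : Fin (n + 1))
    (hβ : Function.Bijective (betaHom e j)) :
    Nonempty (((i : Fin m) → A i.succ) ≃* ((k : Fin n) → B (j.succAbove k))) := by
  obtain ⟨θ, hθ⟩ : ∃ θ : ((i : Fin m) → A i.succ) →* ((k : Fin n) → B (j.succAbove k)),
      ∀ x k, θ x k = e (consHom x) (j.succAbove k) :=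
    ⟨{ toFun := fun x k => e (consHom x) (j.succAbove k)
       map_one' := by funext k; simp
       map_mul' := fun x y => by funext k; simp }, fun _ _ => rfl⟩
  have hinj : Function.Injective θ := by
    rw [injective_iff_map_eq_one]
    intro x hx
    have h1 : e (consHom x) = Pi.mulSingle j (e (consHom x) j) := by
      funext k
      rcases Fin.eq_self_or_eq_succAbove j k with rfl | ⟨k', rfl⟩
      · simp
      · rw [← hθ, hx, Pi.mulSingle_eq_of_ne (Fin.succAbove_ne j k')]
        rfl
    have h2 : betaHom e j (e (consHom x) j) = 1 := by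
      rw [betaHom_apply, ← h1, e.symm_apply_apply, consHom_zero]
    have h3 : e (consHom x) j = 1 := hβ.1 (by rw [h2, map_one])
    rw [h3, Pi.mulSingle_one] at h1
    have h4 : consHom x = 1 := e.injective (by rw [h1, map_one])
    funext i
    rw [← consHom_succ x i, h4]
    rfl
  have hcard : Nat.card ((k : Fin n) → B (j.succAbove k)) ≤ Nat.card ((i : Fin m) → A i.succ) := by
    have c1 : Nat.card ((i : Fin (m + 1)) → A i) = Nat.card ((j : Fin (n + 1)) → B j) :=
      Nat.card_congr e.toEquiv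
    have c2 : Nat.card (B j) = Nat.card (A 0) := Nat.card_congr (Equiv.ofBijective _ hβ)
    rw [Nat.card_pi, Nat.card_pi, Fin.prod_univ_succ, Fin.prod_univ_succAbove _ j, c2] at c1
    rw [Nat.card_pi, Nat.card_pi]
    exact (Nat.eq_of_mul_eq_mul_left Nat.card_pos c1).ge
  exact ⟨MulEquiv.ofBijective θ (hinj.bijective_of_nat_card_le hcard)⟩

end reduce

universe u v

theorem krull_schmidt : ∀ (m n : ℕ) (A : Fin m → Type u) (B : Fin n → Type v) [∀ i, Group (A i)]
    [∀ j, Group (B j)] [∀ i, Finite (A i)] [∀ j, Finite (B j)],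
    (∀ i, Nontrivial (A i) ∧ Indec (A i)) → (∀ j, Nontrivial (B j) ∧ Indec (B j)) →
    (((i : Fin m) → A i) ≃* ((j : Fin n) → B j)) → ∃ σ : Fin m ≃ Fin n, ∀ i, Nonempty (A i ≃* B (σ i)) := by
  intro m
  induction m with
  | zero =>
    intro n A B _ _ _ _ hA hB e
    cases n with
    | zero => exact ⟨Equiv.refl _, fun i => i.elim0⟩
    | succ n =>
      exfalso
      obtain ⟨x, y, hxy⟩ := (hB 0).1
      apply hxy
      have h1 : e.symm (Pi.mulSingle 0 x) = e.symm (Pi.mulSingle 0 y) := Subsingleton.elim _ _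
      have h2 := congrFun (e.symm.injective h1) 0
      simpa using h2
  | succ m ih =>
    intro n A B _ _ _ _ hA hB e
    obtain ⟨j, hj⟩ := exists_factor (hA 0).1 (hA 0).2 e
    cases n with
    | zero => exact j.elim0
    | succ n =>
      have hβ := betaHom_bijective (hA 0).1 e j (hB j).2 hj
      obtain ⟨e'⟩ := reduce e j hβ
      obtain ⟨σ', hσ'⟩ := ih n (fun i => A i.succ) (fun k => B (j.succAbove k)) (fun i => hA _)
        (fun k => hB _) e'
      refine ⟨(finSuccEquiv' 0).trans ((Equiv.optionCongr σ').trans (finSuccEquiv' j).symm), ?_⟩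
      intro i
      refine Fin.cases ?_ (fun k => ?_) i
      · have h1 : ((finSuccEquiv' 0).trans ((Equiv.optionCongr σ').trans (finSuccEquiv' j).symm)) 0 = j := by
          simp
        rw [h1]
        exact ⟨(MulEquiv.ofBijective _ hβ).symm⟩
      · have h1 : ((finSuccEquiv' 0).trans ((Equiv.optionCongr σ').trans (finSuccEquiv' j).symm)) k.succ =
            j.succAbove (σ' k) := by
          have h2 : (finSuccEquiv' (0 : Fin (m + 1))) k.succ = some k := by
            rw [← Fin.succAbove_zero_apply, finSuccEquiv'_succAbove]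
          simp [h2]
        rw [h1]
        exact hσ' k

end Cfsg.Agent.Lib.Helper12
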